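import Mathlib

set_option autoImplicit false

namespace CfsgLib.Shintani

variable {X : Type*} [Group X]

theorem apply_pow_fixed (σ : MulAut X) {x : X} (hx : σ x = x) : ∀ n : ℕ, (σ ^ n) x = x
  | 0 => rfl
  | n + 1 => by rw [pow_succ, MulAut.mul_apply, hx, apply_pow_fixed σ hx n]

theorem pow_apply_comm (σ : MulAut X) (n : ℕ) (a : X) : (σ ^ n) (σ a) = σ ((σ ^ n) a) := by
  rw [← MulAut.mul_apply, ← pow_succ, pow_succ', MulAut.mul_apply]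

theorem prod_range_twist (σ : MulAut X) (a : X) : ∀ d : ℕ,
    ((List.range d).map (fun i => (σ ^ i) (a * (σ a)⁻¹))).prod = a * ((σ ^ d) a)⁻¹
  | 0 => by simp
  | d + 1 => by
      rw [List.range_succ, List.map_append, List.prod_append, prod_range_twist σ a d]
      simp [pow_succ, MulAut.mul_apply, mul_assoc]

theorem image_fixed (σ : MulAut X) (e : ℕ) (a : X)
    (hg : (σ ^ e) (a * (σ a)⁻¹) = a * (σ a)⁻¹) :
    σ (((σ ^ e) a)⁻¹ * a) = ((σ ^ e) a)⁻¹ * a := by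
  rw [map_mul, map_inv, pow_apply_comm] at hg
  rw [map_mul, map_inv]
  have h2 : (σ ((σ ^ e) a))⁻¹ = ((σ ^ e) a)⁻¹ * (a * (σ a)⁻¹) := by rw [← hg]; group
  rw [h2]; group

theorem conj_fixed_iff (σ : MulAut X) (a k : X) :
    k * (a * (σ a)⁻¹) * (σ k)⁻¹ = a * (σ a)⁻¹ ↔ σ (a⁻¹ * k * a) = a⁻¹ * k * a := by
  simp only [map_mul, map_inv]
  rw [eq_comm (a := (σ a)⁻¹ * σ k * σ a), mul_inv_eq_iff_eq_mul]
  constructor
  · intro h
    calc a⁻¹ * k * a = a⁻¹ * (k * (a * (σ a)⁻¹)) * σ a := by group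
      _ = (σ a)⁻¹ * σ k * σ a := by rw [h]; group
  · intro h
    calc k * (a * (σ a)⁻¹) = a * (a⁻¹ * k * a) * (σ a)⁻¹ := by group
      _ = a * (σ a)⁻¹ * σ k := by rw [h]; group

/-- Both sides count, up to the factor `|Y ∩ G|` resp. `|Y ∩ H|`, the pairs `(h, b)` with
`h` fixed by `σ`, `b ∈ Y` and `h⁻¹ x h = σᵉ(b)⁻¹ b`. -/
theorem card_fixed_cosets (σ : MulAut X) (e : ℕ)
    (Y : Subgroup X) (hY : ∀ y : X, y ∈ Y ↔ σ y ∈ Y)
    (hYL : ∀ y ∈ Y, ∃ a ∈ Y, y = a * (σ a)⁻¹) (hYLe : ∀ y ∈ Y, ∃ a ∈ Y, y = a * ((σ ^ e) a)⁻¹)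
    (a : X) :
    Nat.card {k : ↥((MulEquiv.toMonoidHom (σ ^ e)).eqLocus (MonoidHom.id X)) //
          (k : X)⁻¹ * (a * (σ a)⁻¹) * σ k ∈ Y} *
        Nat.card ↥(Y ⊓ (MulEquiv.toMonoidHom σ).eqLocus (MonoidHom.id X)) =
      Nat.card {h : ↥((MulEquiv.toMonoidHom σ).eqLocus (MonoidHom.id X)) //
          (h : X)⁻¹ * (((σ ^ e) a)⁻¹ * a) * h ∈ Y} *
        Nat.card ↥(Y ⊓ (MulEquiv.toMonoidHom (σ ^ e)).eqLocus (MonoidHom.id X)) := by
  classical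
  let P := {p : X × X // σ p.1 = p.1 ∧ p.2 ∈ Y ∧
    p.1⁻¹ * (((σ ^ e) a)⁻¹ * a) * p.1 = ((σ ^ e) p.2)⁻¹ * p.2}
  have hYpow : ∀ n : ℕ, ∀ y ∈ Y, (σ ^ n) y ∈ Y := by
    intro n
    induction n with
    | zero => intro y hy; simpa using hy
    | succ n ih => intro y hy; rw [pow_succ, MulAut.mul_apply]; exact ih _ ((hY y).mp hy)
  -- pairs over the points k of the left side
  have hk : ∀ k : {k : ↥((MulEquiv.toMonoidHom (σ ^ e)).eqLocus (MonoidHom.id X)) //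
      (k : X)⁻¹ * (a * (σ a)⁻¹) * σ k ∈ Y},
      ∃ b ∈ Y, ((k.1 : X))⁻¹ * (a * (σ a)⁻¹) * σ (k.1 : X) = b * (σ b)⁻¹ :=
    fun k => hYL _ k.2
  choose bk hbkY hbk using hk
  have hh : ∀ h : {h : ↥((MulEquiv.toMonoidHom σ).eqLocus (MonoidHom.id X)) //
      (h : X)⁻¹ * (((σ ^ e) a)⁻¹ * a) * h ∈ Y},
      ∃ b ∈ Y, ((h.1 : X))⁻¹ * (((σ ^ e) a)⁻¹ * a) * (h.1 : X) = ((σ ^ e) b)⁻¹ * b := by
    intro h
    obtain ⟨c, hc, hc'⟩ := hYLe _ (inv_mem h.2)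
    exact ⟨c⁻¹, inv_mem hc, by rw [← inv_inj, hc', map_inv]; group⟩
  choose bh hbhY hbh using hh
  -- left side
  have eL : {k : ↥((MulEquiv.toMonoidHom (σ ^ e)).eqLocus (MonoidHom.id X)) //
        (k : X)⁻¹ * (a * (σ a)⁻¹) * σ k ∈ Y} ×
      ↥(Y ⊓ (MulEquiv.toMonoidHom σ).eqLocus (MonoidHom.id X)) ≃ P := by
    refine Equiv.ofBijective (fun p => ⟨(a⁻¹ * (p.1.1 : X) * bk p.1 * (p.2 : X),
      bk p.1 * (p.2 : X)), ?_, ?_, ?_⟩) ⟨?_, ?_⟩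
    · have hy : σ (p.2 : X) = (p.2 : X) := (Subgroup.mem_inf.mp p.2.2).2
      simp only [map_mul, map_inv, hy]
      calc (σ a)⁻¹ * σ (p.1.1 : X) * σ (bk p.1) * (p.2 : X)
          = a⁻¹ * (p.1.1 : X) * ((p.1.1 : X)⁻¹ * (a * (σ a)⁻¹) * σ (p.1.1 : X)) * σ (bk p.1) *
              (p.2 : X) := by group
        _ = _ := by rw [hbk]; group
    · exact mul_mem (hbkY _) (Subgroup.mem_inf.mp p.2.2).1
    · have hke : (σ ^ e) (p.1.1 : X) = (p.1.1 : X) := p.1.1.2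
      have hy : σ (p.2 : X) = (p.2 : X) := (Subgroup.mem_inf.mp p.2.2).2
      have hh1 : σ (a⁻¹ * (p.1.1 : X) * bk p.1) = a⁻¹ * (p.1.1 : X) * bk p.1 := by
        simp only [map_mul, map_inv]
        calc (σ a)⁻¹ * σ (p.1.1 : X) * σ (bk p.1)
            = a⁻¹ * (p.1.1 : X) * ((p.1.1 : X)⁻¹ * (a * (σ a)⁻¹) * σ (p.1.1 : X)) * σ (bk p.1) :=
              by group
          _ = _ := by rw [hbk]; group
      have h1 := apply_pow_fixed σ hh1 e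
      simp only [map_mul, map_inv, hke] at h1
      rw [map_mul, apply_pow_fixed σ hy e]
      have h2 : ((σ ^ e) (bk p.1))⁻¹ =
          (a⁻¹ * (p.1.1 : X) * bk p.1)⁻¹ * (((σ ^ e) a)⁻¹ * (p.1.1 : X)) := by
        rw [← h1]; group
      dsimp only
      rw [mul_inv_rev ((σ ^ e) (bk p.1)), h2]; group
    · rintro ⟨k, y⟩ ⟨k', y'⟩ h
      have h1 := congrArg (fun q : P => a * q.1.1 * q.1.2⁻¹) h
      have h2 := congrArg (fun q : P => q.1.2) h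
      simp only [mul_inv_rev] at h1
      have hkk : k = k' := by
        apply Subtype.ext; apply Subtype.ext
        calc (k.1 : X) = a * (a⁻¹ * (k.1 : X) * bk k * (y : X)) * ((y : X)⁻¹ * (bk k)⁻¹) := by group
          _ = _ := h1
          _ = (k'.1 : X) := by group
      subst hkk
      exact Prod.ext rfl (Subtype.ext (mul_left_cancel h2))
    · rintro ⟨⟨h, b⟩, hσ, hb, hxb⟩
      simp only at hσ hb hxb
      have hk1 : (σ ^ e) (a * h * b⁻¹) = a * h * b⁻¹ := by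
        simp only [map_mul, map_inv, apply_pow_fixed σ hσ e]
        calc (σ ^ e) a * h * ((σ ^ e) b)⁻¹ = (σ ^ e) a * h * (((σ ^ e) b)⁻¹ * b) * b⁻¹ := by group
          _ = _ := by rw [← hxb]; group
      have hk2 : (a * h * b⁻¹)⁻¹ * (a * (σ a)⁻¹) * σ (a * h * b⁻¹) = b * (σ b)⁻¹ := by
        simp only [map_mul, map_inv, hσ]; group
      refine ⟨(⟨⟨a * h * b⁻¹, hk1⟩, by rw [hk2]; exact mul_mem hb (inv_mem ((hY b).mp hb))⟩,
        ⟨(bk ⟨⟨a * h * b⁻¹, hk1⟩, by rw [hk2]; exact mul_mem hb (inv_mem ((hY b).mp hb))⟩)⁻¹ * b,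
          Subgroup.mem_inf.mpr ⟨mul_mem (inv_mem (hbkY _)) hb, ?_⟩⟩), ?_⟩
      · change σ _ = _
        have h3 := (hbk ⟨⟨a * h * b⁻¹, hk1⟩,
          by rw [hk2]; exact mul_mem hb (inv_mem ((hY b).mp hb))⟩).symm.trans hk2
        generalize bk _ = c at h3 ⊢
        rw [MonoidHom.id_apply, map_mul, map_inv]
        calc (σ c)⁻¹ * σ b = c⁻¹ * (c * (σ c)⁻¹) * σ b := by group
          _ = _ := by rw [h3]; group
      · apply Subtype.ext; apply Prod.ext <;> simp only <;> group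
  -- right side
  have eR : {h : ↥((MulEquiv.toMonoidHom σ).eqLocus (MonoidHom.id X)) //
        (h : X)⁻¹ * (((σ ^ e) a)⁻¹ * a) * h ∈ Y} ×
      ↥(Y ⊓ (MulEquiv.toMonoidHom (σ ^ e)).eqLocus (MonoidHom.id X)) ≃ P := by
    refine Equiv.ofBijective (fun p => ⟨((p.1.1 : X), (p.2 : X) * bh p.1), p.1.1.2, ?_, ?_⟩) ⟨?_, ?_⟩
    · exact mul_mem (Subgroup.mem_inf.mp p.2.2).1 (hbhY _)
    · have hy : (σ ^ e) (p.2 : X) = (p.2 : X) := (Subgroup.mem_inf.mp p.2.2).2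
      rw [hbh, map_mul, hy]; group
    · rintro ⟨h, y⟩ ⟨h', y'⟩ hp
      have h1 : h = h' := Subtype.ext (Subtype.ext (congrArg (fun q : P => q.1.1) hp))
      subst h1
      exact Prod.ext rfl (Subtype.ext (mul_right_cancel (congrArg (fun q : P => q.1.2) hp)))
    · rintro ⟨⟨h, b⟩, hσ, hb, hxb⟩
      simp only at hσ hb hxb
      have hmem : h⁻¹ * (((σ ^ e) a)⁻¹ * a) * h ∈ Y := by
        rw [hxb]; exact mul_mem (inv_mem (hYpow e b hb)) hb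
      let hs : {h : ↥((MulEquiv.toMonoidHom σ).eqLocus (MonoidHom.id X)) //
        (h : X)⁻¹ * (((σ ^ e) a)⁻¹ * a) * h ∈ Y} := ⟨⟨h, hσ⟩, hmem⟩
      have h4 : ((σ ^ e) (bh hs))⁻¹ * bh hs = ((σ ^ e) b)⁻¹ * b := (hbh hs).symm.trans hxb
      refine ⟨(hs, ⟨b * (bh hs)⁻¹, Subgroup.mem_inf.mpr ⟨mul_mem hb (inv_mem (hbhY _)), ?_⟩⟩), ?_⟩
      · change (σ ^ e) _ = _
        rw [MonoidHom.id_apply, map_mul, map_inv]
        calc (σ ^ e) b * ((σ ^ e) (bh hs))⁻¹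
            = (σ ^ e) b * (((σ ^ e) (bh hs))⁻¹ * bh hs) * (bh hs)⁻¹ := by group
          _ = _ := by rw [h4]; group
      · apply Subtype.ext; exact Prod.ext rfl (inv_mul_cancel_right b (bh hs))
  rw [← Nat.card_prod, ← Nat.card_prod]
  exact Nat.card_congr (eL.trans eR.symm)

end CfsgLib.Shintani
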